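import Mathlib
import Cfsg.Agent.S0173
import Cfsg.Agent.Blocks.Deflate

/-!
# S4577, E8 star case: the non-invariant characters form one orbit (helper422)

`abs`: `N` a finite group embedded as a normal subgroup in `G`; `h0 ∈ G` of order 5 modulo `N Z(G)`, `G = <h0> N Z(G)`;
every `x ∈ N` commutes with an element of `h0 N Z(G)` or is a central element times an element of `R`, a set which is
contained in one `G`-class.  Then any two irreducible characters of `N`, trivial on `N ∩ Z(G)` and not `G`-invariant, are
conjugate under `G`.  (Brauer's permutation lemma, S0173.)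
-/

set_option autoImplicit false

open Cfsg

namespace Cfsg.Agent.H422.KS

universe u v

section perm

/-- An injective self map `f` of a finite type with `f^5 = 1`: if the non-fixed points lie in `{f^i c}`, there are at most
five of them. -/
theorem card_le_five {X : Type*} [Finite X] (f : X → X) (c : X) (h : ∀ x, f x ≠ x → ∃ i < 5, x = f^[i] c) :
    Nat.card {x : X // f x ≠ x} ≤ 5 := by
  classical
  have h1 : ∀ x : {x : X // f x ≠ x}, ∃ i : Fin 5, (x : X) = f^[(i : ℕ)] c := fun x => by
    obtain ⟨i, hi, h2⟩ := h x.1 x.2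
    exact ⟨⟨i, hi⟩, h2⟩
  choose g hg using h1
  have hinj : Function.Injective g := fun a b hab => by
    apply Subtype.ext
    rw [hg a, hg b, hab]
  have h2 := Nat.card_le_card_of_injective g hinj
  have h3 : Nat.card (Fin 5) = 5 := by rw [Nat.card_eq_fintype_card, Fintype.card_fin]
  rwa [h3] at h2

/-- a self map with `f^5 = 1` on a set with at most five non-fixed points has one orbit of non-fixed points -/
theorem one_orbit {X : Type*} [Finite X] (f : X → X) (h5 : ∀ x, f^[5] x = x) (hc : Nat.card {x : X // f x ≠ x} ≤ 5)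
    {a b : X} (ha : f a ≠ a) (hb : f b ≠ b) : ∃ i : ℕ, b = f^[i] a := by
  classical
  have := Fintype.ofFinite X
  have hinj : Function.Injective f := by
    intro x y hxy
    rw [← h5 x, ← h5 y]
    simp only [Function.iterate_succ, Function.comp_apply, hxy]
  have hper : Function.IsPeriodicPt f 5 a := h5 a
  have hmin : Function.minimalPeriod f a = 5 := by
    have h1 : Function.minimalPeriod f a ∣ 5 := hper.minimalPeriod_dvd
    rcases (Nat.dvd_prime Nat.prime_five).1 h1 with h2 | h2
    · exact absurd (Function.minimalPeriod_eq_one_iff_isFixedPt.1 h2) ha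
    · exact h2
  have hnf : ∀ i : ℕ, f (f^[i] a) ≠ f^[i] a := by
    intro i h1
    apply ha
    have h2 : f^[i] (f a) = f^[i] a := by
      rw [← h1, ← Function.iterate_succ_apply, Function.iterate_succ_apply', h1]
    exact hinj.iterate i h2
  by_contra hcon
  push Not at hcon
  let g : Option (Fin 5) → {x : X // f x ≠ x} := fun o => match o with
    | none => ⟨b, hb⟩
    | some i => ⟨f^[(i : ℕ)] a, hnf i⟩
  have hg : Function.Injective g := by
    rintro (_ | i) (_ | j) hij
    · rfl
    · exact absurd (congrArg Subtype.val hij) (hcon j)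
    · exact absurd (congrArg Subtype.val hij).symm (hcon i)
    · have h1 : f^[(i : ℕ)] a = f^[(j : ℕ)] a := congrArg Subtype.val hij
      have h2 : ∀ k : Fin 5, (k : ℕ) < Function.minimalPeriod f a := fun k => by rw [hmin]; exact k.2
      have h3 := (Function.iterate_injOn_Iio_minimalPeriod (f := f) (x := a)) (Set.mem_Iio.2 (h2 i)) (Set.mem_Iio.2 (h2 j)) h1
      exact congrArg some (Fin.ext h3)
  have h1 := Nat.card_le_card_of_injective g hg
  have h3 : Nat.card (Option (Fin 5)) = 6 := by rw [Nat.card_eq_fintype_card, Fintype.card_option, Fintype.card_fin]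
  omega

end perm

/-- **S0173 plus one orbit.** -/
theorem one_orbit_irr {S : Type u} [Group S] [Finite S] (σ : S ≃* S) (h5 : ∀ s, IsConj (σ^[5] s) s) (c : S)
    (hc : ∀ s, ¬ IsConj (σ s) s → ∃ i < 5, IsConj s (σ^[i] c)) {ψ φ : IrrCharacter S}
    (hψ : (ψ : S → ℂ) ∘ σ ≠ (ψ : S → ℂ)) (hφ : (φ : S → ℂ) ∘ σ ≠ (φ : S → ℂ)) :
    ∃ i : ℕ, ∀ s, (φ : S → ℂ) s = (ψ : S → ℂ) (σ^[i] s) := by
  classical
  have := Characters.Core.finite_irr (G := S)
  let f : ConjClasses S → ConjClasses S := ConjClasses.map σ.toMonoidHom
  have hfm : ∀ s, f (ConjClasses.mk s) = ConjClasses.mk (σ s) := fun s => rfl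
  have hfi : ∀ (i : ℕ) s, f^[i] (ConjClasses.mk s) = ConjClasses.mk (σ^[i] s) := by
    intro i
    induction i with
    | zero => intro s; rfl
    | succ i ih =>
      intro s
      rw [Function.iterate_succ_apply', ih, hfm, ← Function.iterate_succ_apply' σ]
  have h1 : Nat.card {C : ConjClasses S // f C ≠ C} ≤ 5 := by
    refine card_le_five f (ConjClasses.mk c) fun C hC => ?_
    obtain ⟨s, rfl⟩ := ConjClasses.exists_rep C
    rw [hfm, Ne, ConjClasses.mk_eq_mk_iff_isConj] at hC
    obtain ⟨i, hi, h2⟩ := hc s hC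
    exact ⟨i, hi, by rw [hfi]; exact ConjClasses.mk_eq_mk_iff_isConj.2 h2⟩
  let g : IrrCharacter S → IrrCharacter S := fun χ => ⟨(χ : S → ℂ) ∘ σ, Characters.Core.isIrr_comp σ.toMonoidHom σ.surjective χ.2⟩
  have hgc : ∀ χ : IrrCharacter S, ((g χ : IrrCharacter S) : S → ℂ) = (χ : S → ℂ) ∘ σ := fun χ => rfl
  have hgi : ∀ (i : ℕ) (χ : IrrCharacter S) s, ((g^[i] χ : IrrCharacter S) : S → ℂ) s = (χ : S → ℂ) (σ^[i] s) := by
    intro i
    induction i with
    | zero => intro χ s; rfl
    | succ i ih =>
      intro χ s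
      rw [Function.iterate_succ_apply, ih, hgc, Function.comp_apply, ← Function.iterate_succ_apply' σ]
  have hg5 : ∀ χ, g^[5] χ = χ := by
    intro χ
    apply Subtype.ext
    funext s
    rw [hgi]
    exact Characters.Core.classFunction_apply_eq (Characters.Core.isIrr_isClassFunction χ.2) (h5 s)
  -- counting
  have h2 : Nat.card {χ : IrrCharacter S // g χ ≠ χ} ≤ 5 := by
    have e1 := Cfsg.Agent.S0173.result σ
    have e2 : Nat.card {χ : IrrCharacter S // (χ : S → ℂ) ∘ σ = (χ : S → ℂ)} = Nat.card {χ : IrrCharacter S // g χ = χ} :=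
      Nat.card_congr (Equiv.subtypeEquivRight fun χ => by
        rw [Subtype.ext_iff])
    have e3 : Nat.card {C : ConjClasses S // f C = C} + Nat.card {C : ConjClasses S // f C ≠ C} = Nat.card (ConjClasses S) := by
      have := Fintype.ofFinite (ConjClasses S)
      rw [Nat.card_eq_fintype_card, Nat.card_eq_fintype_card, Nat.card_eq_fintype_card]
      have := Fintype.card_subtype_compl (fun C : ConjClasses S => f C = C)
      have h4 := Fintype.card_subtype_le (fun C : ConjClasses S => f C = C)
      simp only [Ne]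
      omega
    have e4 : Nat.card {χ : IrrCharacter S // g χ = χ} + Nat.card {χ : IrrCharacter S // g χ ≠ χ} = Nat.card (IrrCharacter S) := by
      have := Fintype.ofFinite (IrrCharacter S)
      rw [Nat.card_eq_fintype_card, Nat.card_eq_fintype_card, Nat.card_eq_fintype_card]
      have := Fintype.card_subtype_compl (fun χ : IrrCharacter S => g χ = χ)
      have h4 := Fintype.card_subtype_le (fun χ : IrrCharacter S => g χ = χ)
      simp only [Ne]
      omega
    have e5 : Nat.card (ConjClasses S) = Nat.card (IrrCharacter S) := by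
      have h6 := Cfsg.Agent.S0173.result (MulEquiv.refl S)
      have h7 : Nat.card {C : ConjClasses S // ConjClasses.map (MulEquiv.refl S).toMonoidHom C = C} = Nat.card (ConjClasses S) :=
        Nat.card_congr (Equiv.subtypeUnivEquiv fun C => by
          obtain ⟨s, rfl⟩ := ConjClasses.exists_rep C
          rfl)
      have h8 : Nat.card {χ : IrrCharacter S // (χ : S → ℂ) ∘ (MulEquiv.refl S) = (χ : S → ℂ)} = Nat.card (IrrCharacter S) :=
        Nat.card_congr (Equiv.subtypeUnivEquiv fun χ => rfl)
      rw [← h7, ← h8, h6]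
    have e6 : Nat.card {C : ConjClasses S // f C = C} = Nat.card {χ : IrrCharacter S // g χ = χ} := e1.trans e2
    omega
  obtain ⟨i, hi⟩ := one_orbit g hg5 h2 (a := ψ) (b := φ) (fun h => hψ (congrArg Subtype.val h))
    (fun h => hφ (congrArg Subtype.val h))
  exact ⟨i, fun s => by rw [hi, hgi]⟩

end Cfsg.Agent.H422.KS
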